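import Mathlib
import Cfsg.Prelude.Def_GeometricClasses

set_option autoImplicit false

/-! # Subgroup structure of the unitary groups: the refined list of classes (for the rows) -/

namespace Cfsg.Agent.Lib.Helper5.SUAsch

open Cfsg Cfsg.Geo Matrix
open scoped Kronecker MatrixGroups

variable {F : Type*} [Field F]

/-- `SU_n(q)` as a subgroup of `GL_n(F)` -/
abbrev SUg (n : ℕ) (F : Type*) [Field F] (q : ℕ) : Subgroup (GL (Fin n) F) :=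
  GU n F q ⊓ specialLinear (Fin n) F

/-- `H` lies in a member of one of the unitary classes; the same list as `InUnitaryClass`, stated
for `H` directly (`H ≤ ` the stabiliser in `GL`), with the extra information `n = r ^ k` in
class 6. -/
def UCls [Fintype F] (n q : ℕ) (H : Subgroup (GL (Fin n) F)) : Prop :=
  (∃ W : Submodule F (Fin n → F), W ≠ ⊥ ∧ IsTotallySingularFor (hermForm n F q) W ∧
      H ≤ subspaceStabilizer W) ∨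
  (∃ W : Submodule F (Fin n → F), W ≠ ⊥ ∧ IsNondegenerateOn (hermForm n F q) W ∧
      2 * Module.finrank F W < n ∧ H ≤ subspaceStabilizer W) ∨
  (∃ (t k : ℕ) (D : Fin t → Submodule F (Fin n → F)),
      IsNondegenerateMDecomposition (hermForm n F q) k D ∧ H ≤ decompositionStabilizer D) ∨
  (∃ (k : ℕ) (D : Fin 2 → Submodule F (Fin n → F)), 2 * k = n ∧ IsMDecomposition k D ∧
      (∀ i, IsTotallySingularFor (hermForm n F q) (D i)) ∧ H ≤ decompositionStabilizer D) ∨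
  (∃ (F₀ : Subfield F) (r : ℕ) (P : GL (Fin n) F), r.Prime ∧ Odd r ∧
      Fintype.card F = Nat.card F₀ ^ r ∧ IsFormRationalStructure (hermForm n F q) F₀ 1 P ∧
      H ≤ subfieldSubgroup F₀ P) ∨
  (∃ (F₀ : Subfield F) (P : GL (Fin n) F), Odd q ∧ Fintype.card F = Nat.card F₀ ^ 2 ∧
      IsFormRationalStructure (hermForm n F q) F₀ 1 P ∧ H ≤ subfieldSubgroup F₀ P) ∨
  (∃ (F₀ : Subfield F) (P : GL (Fin n) F) (ζ : F), Even n ∧ Fintype.card F = Nat.card F₀ ^ 2 ∧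
      ζ ≠ 0 ∧ ζ + ζ ^ q = 0 ∧ IsFormRationalStructure (hermForm n F q) F₀ ζ P ∧
      (∀ u : Fin n → F, (∀ i, u i ∈ F₀) →
        hermForm n F q ((P : Matrix (Fin n) (Fin n) F) *ᵥ u)
          ((P : Matrix (Fin n) (Fin n) F) *ᵥ u) = 0) ∧
      H ≤ subfieldSubgroup F₀ P) ∨
  (∃ (r : ℕ) (R : Subgroup (GL (Fin n) F)) (p e k : ℕ), IsSymplecticTypeGroup r R ∧
      ActsAbsolutelyIrreducibly (matrixSet R) ∧ R ≤ similarityGroup (hermForm n F q) ∧ r ≠ p ∧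
      IsMinimalFieldFor (Nat.card (Subgroup.center R)) p e F ∧
      ((Odd r ∧ Nat.card (Subgroup.center R) = r ∧ 1 ≤ k ∧ Nat.card R = r ^ (1 + 2 * k)) ∨
       (r = 2 ∧ e = 2 ∧ Nat.card (Subgroup.center R) = 4 ∧ Nat.card R = 2 ^ (2 + 2 * k))) ∧
      n = r ^ k ∧ H ≤ subgroupNormalizer R) ∨
  (∃ (r : ℕ) (K : Subalgebra F (Matrix (Fin n) (Fin n) F)), r.Prime ∧ Odd r ∧
      IsFieldSubalgebra r K ∧ IsAdjointClosedFor (hermForm n F q) K ∧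
      H ≤ subalgebraNormalizer K) ∨
  (∃ (n₁ n₂ : ℕ) (e : Fin n ≃ Fin n₁ × Fin n₂) (P : GL (Fin n) F)
      (f₁ : (Fin n₁ → F) → (Fin n₁ → F) → F) (f₂ : (Fin n₂ → F) → (Fin n₂ → F) → F),
      2 ≤ n₁ ∧ n₁ < n₂ ∧ IsUnitaryFormPow q f₁ ∧ IsUnitaryFormPow q f₂ ∧
      IsTensorFormStructure (fun x : F => x ^ q) (hermForm n F q) f₁ f₂ e P ∧
      H ≤ tensorProductSubgroup n₁ n₂ e P) ∨
  (∃ (k t : ℕ) (e : Fin n ≃ (Fin t → Fin k)) (P : GL (Fin n) F)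
      (f₁ : (Fin k → F) → (Fin k → F) → F),
      3 ≤ k ∧ 2 ≤ t ∧ ¬ (q = 2 ∧ k = 3) ∧ IsUnitaryFormPow q f₁ ∧
      IsTensorPowerFormStructure (fun x : F => x ^ q) (hermForm n F q) f₁ e P ∧
      H ≤ tensorWreathSubgroup k t e P)

theorem UCls.inClass [Fintype F] {n q : ℕ} {H : Subgroup (GL (Fin n) F)} (h : UCls n q H)
    (hH : H ≤ GU n F q) : ∃ M : Subgroup (GL (Fin n) F), InUnitaryClass n F q M ∧ H ≤ M := by
  rcases h with ⟨W, h0, h1, h⟩ | ⟨W, h0, h1, h2, h⟩ | ⟨t, k, D, hD, h⟩ | ⟨k, D, hk, hD, hs, h⟩ |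
    ⟨F₀, r, P, hr, ho, hc, hf, h⟩ | ⟨F₀, P, ho, hc, hf, h⟩ | ⟨F₀, P, ζ, he, hc, h0, h1, hf, ha, h⟩ |
    ⟨r, R, p, e, k, h1, h2, h3, h4, h5, h6, -, h⟩ | ⟨r, K, hr, ho, hK, ha, h⟩ |
    ⟨a, b, e, P, f₁, f₂, ha, hb, h1, h2, h3, h⟩ | ⟨k, t, e, P, f₁, hk, ht, hx, h1, h2, h⟩
  · exact ⟨_, Or.inl (Or.inl ⟨W, h0, h1, rfl⟩), le_inf h hH⟩
  · exact ⟨_, Or.inl (Or.inr (Or.inl ⟨W, h0, h1, h2, rfl⟩)), le_inf h hH⟩
  · exact ⟨_, Or.inl (Or.inr (Or.inr (Or.inl ⟨t, k, D, hD, rfl⟩))), le_inf h hH⟩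
  · exact ⟨_, Or.inl (Or.inr (Or.inr (Or.inr (Or.inl ⟨k, D, hk, hD, hs, rfl⟩)))), le_inf h hH⟩
  · exact ⟨_, Or.inl (Or.inr (Or.inr (Or.inr (Or.inr (Or.inl ⟨F₀, r, P, hr, ho, hc, hf, rfl⟩))))),
      le_inf h hH⟩
  · exact ⟨_, Or.inl (Or.inr (Or.inr (Or.inr (Or.inr (Or.inr (Or.inl ⟨F₀, P, ho, hc, hf, rfl⟩)))))),
      le_inf h hH⟩
  · exact ⟨_, Or.inl (Or.inr (Or.inr (Or.inr (Or.inr (Or.inr (Or.inr
      (Or.inl ⟨F₀, P, ζ, he, hc, h0, h1, hf, ha, rfl⟩))))))), le_inf h hH⟩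
  · exact ⟨_, Or.inl (Or.inr (Or.inr (Or.inr (Or.inr (Or.inr (Or.inr
      (Or.inr ⟨r, R, p, e, k, h1, h2, h3, h4, h5, h6, rfl⟩))))))), le_inf h hH⟩
  · exact ⟨_, Or.inr (Or.inl ⟨r, K, hr, ho, hK, ha, rfl⟩), le_inf h hH⟩
  · exact ⟨_, Or.inr (Or.inr (Or.inl ⟨a, b, e, P, f₁, f₂, ha, hb, h1, h2, h3, rfl⟩)), le_inf h hH⟩
  · exact ⟨_, Or.inr (Or.inr (Or.inr ⟨k, t, e, P, f₁, hk, ht, hx, h1, h2, rfl⟩)), le_inf h hH⟩

end Cfsg.Agent.Lib.Helper5.SUAsch
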