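import Mathlib
import Cfsg.Agent.Lib.Helper5.SUAsch.Defs
import Cfsg.Agent.Lib.Helper5.SUSimple
import Cfsg.Agent.Lib.Helper5.SUCenter

set_option autoImplicit false

/-! # `SU_n(q)` inside `GL_n(F)`: transvections, perfectness, normal subgroups -/

namespace Cfsg.Agent.Lib.Helper5.SUAsch

open Cfsg Cfsg.Geo Matrix
open scoped MatrixGroups

variable {F : Type*} [Field F] {n q : ℕ}

theorem mem_specialLinear_iff' {ι : Type} [Fintype ι] [DecidableEq ι] (g : GL ι F) :
    g ∈ specialLinear ι F ↔ (g : Matrix ι ι F).det = 1 := by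
  unfold specialLinear
  rw [MonoidHom.mem_ker, Units.ext_iff]
  rfl

theorem mem_GU_iff (g : GL (Fin n) F) : g ∈ GU n F q ↔
    ∀ u v, hermForm n F q ((g : Matrix (Fin n) (Fin n) F) *ᵥ u)
      ((g : Matrix (Fin n) (Fin n) F) *ᵥ v) = hermForm n F q u v := Iff.rfl

theorem mem_SUg_iff (g : GL (Fin n) F) : g ∈ SUg n F q ↔
    (∀ u v, hermForm n F q ((g : Matrix (Fin n) (Fin n) F) *ᵥ u)
      ((g : Matrix (Fin n) (Fin n) F) *ᵥ v) = hermForm n F q u v) ∧
    (g : Matrix (Fin n) (Fin n) F).det = 1 := by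
  rw [Subgroup.mem_inf, mem_GU_iff, mem_specialLinear_iff']

/-- the embedding of the frozen `SU n F q` into `GL` -/
def toG : Cfsg.SU n F q →* GL (Fin n) F :=
  (Matrix.SpecialLinearGroup.toGL).comp (Cfsg.SU n F q).subtype

theorem toG_coe (g : Cfsg.SU n F q) : ((toG g : GL (Fin n) F) : Matrix (Fin n) (Fin n) F) = g.1.1 :=
  rfl

theorem toG_injective : Function.Injective (toG : Cfsg.SU n F q →* GL (Fin n) F) := by
  intro a b h
  have := congrArg (fun g : GL (Fin n) F => (g : Matrix (Fin n) (Fin n) F)) h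
  exact Subtype.ext (Subtype.ext this)

theorem range_toG : (toG : Cfsg.SU n F q →* GL (Fin n) F).range = SUg n F q := by
  ext g
  rw [mem_SUg_iff]
  constructor
  · rintro ⟨a, rfl⟩
    exact ⟨fun u v => a.2 u v, a.1.2⟩
  · rintro ⟨h1, h2⟩
    exact ⟨⟨⟨(g : Matrix (Fin n) (Fin n) F), h2⟩, fun u v => h1 u v⟩, Units.ext rfl⟩

variable [Fintype F]

/-- unitary transvections in `SUg` -/
theorem exists_tv (hF : Fintype.card F = q ^ 2) (v : Fin n → F) (c : F)
    (hv : hermForm n F q v v = 0) (hc : c + c ^ q = 0) :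
    ∃ g : GL (Fin n) F, g ∈ SUg n F q ∧
      ∀ x, (g : Matrix (Fin n) (Fin n) F) *ᵥ x = x + (c * hermForm n F q x v) • v := by
  refine ⟨toG (tSU hF v c hv hc), ?_, fun x => ?_⟩
  · rw [← range_toG]; exact ⟨_, rfl⟩
  · rw [toG_coe, tSU_mulVec]

theorem SUg_perfect (hF : Fintype.card F = q ^ 2) (hn : 3 ≤ n) (h32 : ¬ (n = 3 ∧ q = 2)) :
    ⁅SUg n F q, SUg n F q⁆ = SUg n F q := by
  have h := su_commutator_eq_top (n := n) hF hn h32
  rw [commutator_def] at h
  have h2 := congrArg (Subgroup.map (toG : Cfsg.SU n F q →* GL (Fin n) F)) h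
  rw [Subgroup.map_commutator, ← MonoidHom.range_eq_map, range_toG] at h2
  exact h2

/-- a subgroup of `SUg` normalised by `SUg` is scalar or everything -/
theorem SUg_normal (hF : Fintype.card F = q ^ 2) (hn : 3 ≤ n) (h32 : ¬ (n = 3 ∧ q = 2))
    (N : Subgroup (GL (Fin n) F)) (hN : N ≤ SUg n F q)
    (hnorm : ∀ g ∈ SUg n F q, ∀ x ∈ N, g * x * g⁻¹ ∈ N) :
    N ≤ scalars (Fin n) F ∨ N = SUg n F q := by
  have hnormal : (N.comap (toG : Cfsg.SU n F q →* GL (Fin n) F)).Normal := by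
    refine ⟨fun x hx g => ?_⟩
    rw [Subgroup.mem_comap] at hx ⊢
    rw [map_mul, map_mul, map_inv]
    exact hnorm _ (by rw [← range_toG]; exact ⟨_, rfl⟩) _ hx
  rcases su_normal_le_center_or hF hn h32 (N.comap toG) with h | h
  · left
    intro x hx
    have hx2 := hN hx
    rw [← range_toG] at hx2
    obtain ⟨a, rfl⟩ := hx2
    obtain ⟨c, hc⟩ := SU_center_scalar hF a (h hx)
    rw [mem_scalars_iff]
    have hc0 : c ≠ 0 := by
      rintro rfl
      have h1 : a.1.1.det = 1 := a.1.2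
      rw [hc] at h1
      have : Nonempty (Fin n) := ⟨⟨0, by omega⟩⟩
      simp at h1
    refine ⟨Units.mk0 c hc0, ?_⟩
    rw [toG_coe, hc]
    simp [Matrix.smul_one_eq_diagonal]
  · right
    apply le_antisymm hN
    intro x hx
    rw [← range_toG] at hx
    obtain ⟨a, rfl⟩ := hx
    have : a ∈ N.comap toG := by rw [h]; trivial
    exact this

/-- generic: a maximal subgroup contained in `M` is `M ⊓ K` -/
theorem eq_inf_of_maximal {G : Type*} [Group G] {K H M : Subgroup G} (hH : IsMaximalIn K H)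
    (hHM : H ≤ M) (hM : ¬ K ≤ M) : H = M ⊓ K := by
  rcases hH.2 (M ⊓ K) (le_inf hHM hH.1.le) inf_le_right with h | h
  · exact h.symm
  · exact absurd (h ▸ inf_le_left) hM

/-- a maximal subgroup of `SUg` together with the scalars of `SUg` is not everything -/
theorem proper_of_maximal (hF : Fintype.card F = q ^ 2) (hn : 3 ≤ n) (h32 : ¬ (n = 3 ∧ q = 2))
    {H : Subgroup (GL (Fin n) F)} (hH : IsMaximalIn (SUg n F q) H) :
    H ⊔ (scalars (Fin n) F ⊓ SUg n F q) ≠ SUg n F q := by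
  intro h
  -- every commutator of elements of `SUg` lies in `H`
  have hsc : ∀ z ∈ scalars (Fin n) F, ∀ g : GL (Fin n) F, z * g = g * z := by
    intro z hz g
    rw [mem_scalars_iff] at hz
    obtain ⟨c, hc⟩ := hz
    apply Units.ext
    rw [Units.val_mul, Units.val_mul, hc]
    simp
  have hdec : ∀ g ∈ SUg n F q, ∃ a ∈ H, ∃ z ∈ scalars (Fin n) F, g = a * z := by
    intro g hg
    rw [← h] at hg
    have hg2 : g ∈ H ⊔ scalars (Fin n) F := (sup_le_sup_left inf_le_left H) hg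
    rw [← SetLike.mem_coe, Subgroup.mul_normal] at hg2
    obtain ⟨a, ha, z, hz, rfl⟩ := hg2
    exact ⟨a, ha, z, hz, rfl⟩
  have hle : ⁅SUg n F q, SUg n F q⁆ ≤ H := by
    rw [Subgroup.commutator_le]
    intro g₁ h₁ g₂ h₂
    obtain ⟨a, ha, z, hz, rfl⟩ := hdec g₁ h₁
    obtain ⟨b, hb, w, hw, rfl⟩ := hdec g₂ h₂
    rw [commutatorElement_def]
    have : a * z * (b * w) * (a * z)⁻¹ * (b * w)⁻¹ = a * b * a⁻¹ * b⁻¹ := by
      have e1 : a * z * (b * w) = a * b * (z * w) := by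
        rw [mul_assoc, ← mul_assoc z b w, hsc z hz b]; group
      have e2 : (a * z)⁻¹ * (b * w)⁻¹ = (z * w)⁻¹ * (a⁻¹ * b⁻¹) := by
        have h3 : b * w * (a * z) = b * a * (z * w) := by
          rw [mul_assoc, ← mul_assoc w a z, hsc w hw a, hsc z hz w]; group
        rw [← _root_.mul_inv_rev, h3, _root_.mul_inv_rev, _root_.mul_inv_rev b a]
      rw [mul_assoc (a * z * (b * w)), e1, e2]
      group
    rw [this]
    exact H.mul_mem (H.mul_mem (H.mul_mem ha hb) (H.inv_mem ha)) (H.inv_mem hb)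
  rw [SUg_perfect hF hn h32] at hle
  exact absurd hle (not_le_of_gt hH.1)

end Cfsg.Agent.Lib.Helper5.SUAsch
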