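import Mathlib
import Cfsg.Agent.Lib.Helper5.SUAsch.Defs

set_option autoImplicit false

/-! # Unitary rows: transvection-like elements and the refined conclusion for maximal subgroups -/

namespace Cfsg.Agent.Lib.Helper5.SUAsch

open Cfsg Cfsg.Geo Matrix
open scoped Kronecker MatrixGroups

variable {F : Type*} [Field F]

/-- `g x = x + φ(x) a` with `a ≠ 0`, `φ ≠ 0` -/
def IsTv {ι : Type} [Fintype ι] [DecidableEq ι] (g : GL ι F) : Prop :=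
  ∃ (φ : (ι → F) →ₗ[F] F) (a : ι → F), a ≠ 0 ∧ φ ≠ 0 ∧
    ∀ x, (g : Matrix ι ι F) *ᵥ x = x + φ x • a

/-- the conclusion for a maximal subgroup `H` of `SU_n(q)`: `H` is the intersection of `SU` with a
class member (with numerical side information), or `H` is in the residual class -/
def URef [Fintype F] (n q : ℕ) (H : Subgroup (GL (Fin n) F)) : Prop :=
  (∃ W : Submodule F (Fin n → F), W ≠ ⊥ ∧ IsTotallySingularFor (hermForm n F q) W ∧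
      H = subspaceStabilizer W ⊓ SUg n F q) ∨
  (∃ W : Submodule F (Fin n → F), W ≠ ⊥ ∧ IsNondegenerateOn (hermForm n F q) W ∧
      2 * Module.finrank F W < n ∧ H = subspaceStabilizer W ⊓ SUg n F q) ∨
  (∃ (t k : ℕ) (D : Fin t → Submodule F (Fin n → F)),
      IsNondegenerateMDecomposition (hermForm n F q) k D ∧ t * k = n ∧ (k = 2 → 3 ≤ q) ∧
      H = decompositionStabilizer D ⊓ SUg n F q) ∨
  (∃ (k : ℕ) (D : Fin 2 → Submodule F (Fin n → F)), 2 * k = n ∧ IsMDecomposition k D ∧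
      (∀ i, IsTotallySingularFor (hermForm n F q) (D i)) ∧
      H = decompositionStabilizer D ⊓ SUg n F q) ∨
  (∃ (F₀ : Subfield F) (r : ℕ) (P : GL (Fin n) F), r.Prime ∧ Odd r ∧
      Fintype.card F = Nat.card F₀ ^ r ∧ IsFormRationalStructure (hermForm n F q) F₀ 1 P ∧
      H = subfieldSubgroup F₀ P ⊓ SUg n F q) ∨
  (∃ (F₀ : Subfield F) (P : GL (Fin n) F), Odd q ∧ Fintype.card F = Nat.card F₀ ^ 2 ∧
      IsFormRationalStructure (hermForm n F q) F₀ 1 P ∧ H = subfieldSubgroup F₀ P ⊓ SUg n F q) ∨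
  (∃ (F₀ : Subfield F) (P : GL (Fin n) F) (ζ : F), Even n ∧ Fintype.card F = Nat.card F₀ ^ 2 ∧
      ζ ≠ 0 ∧ ζ + ζ ^ q = 0 ∧ IsFormRationalStructure (hermForm n F q) F₀ ζ P ∧
      (∀ u : Fin n → F, (∀ i, u i ∈ F₀) →
        hermForm n F q ((P : Matrix (Fin n) (Fin n) F) *ᵥ u)
          ((P : Matrix (Fin n) (Fin n) F) *ᵥ u) = 0) ∧
      H = subfieldSubgroup F₀ P ⊓ SUg n F q) ∨
  (∃ (r : ℕ) (R : Subgroup (GL (Fin n) F)) (p e k : ℕ), IsSymplecticTypeGroup r R ∧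
      ActsAbsolutelyIrreducibly (matrixSet R) ∧ R ≤ similarityGroup (hermForm n F q) ∧ r ≠ p ∧
      IsMinimalFieldFor (Nat.card (Subgroup.center R)) p e F ∧
      ((Odd r ∧ Nat.card (Subgroup.center R) = r ∧ 1 ≤ k ∧ Nat.card R = r ^ (1 + 2 * k)) ∨
       (r = 2 ∧ e = 2 ∧ Nat.card (Subgroup.center R) = 4 ∧ Nat.card R = 2 ^ (2 + 2 * k))) ∧
      n = r ^ k ∧ H = subgroupNormalizer R ⊓ SUg n F q) ∨
  (∃ (r : ℕ) (K : Subalgebra F (Matrix (Fin n) (Fin n) F)), r.Prime ∧ Odd r ∧ r ∣ n ∧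
      IsFieldSubalgebra r K ∧ IsAdjointClosedFor (hermForm n F q) K ∧
      H = subalgebraNormalizer K ⊓ SUg n F q) ∨
  (∃ (n₁ n₂ : ℕ) (e : Fin n ≃ Fin n₁ × Fin n₂) (P : GL (Fin n) F)
      (f₁ : (Fin n₁ → F) → (Fin n₁ → F) → F) (f₂ : (Fin n₂ → F) → (Fin n₂ → F) → F),
      2 ≤ n₁ ∧ n₁ < n₂ ∧ n₁ * n₂ = n ∧ (n₁ = 2 → 3 ≤ q) ∧
      IsUnitaryFormPow q f₁ ∧ IsUnitaryFormPow q f₂ ∧
      IsTensorFormStructure (fun x : F => x ^ q) (hermForm n F q) f₁ f₂ e P ∧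
      H = tensorProductSubgroup n₁ n₂ e P ⊓ SUg n F q) ∨
  (∃ (k t : ℕ) (e : Fin n ≃ (Fin t → Fin k)) (P : GL (Fin n) F)
      (f₁ : (Fin k → F) → (Fin k → F) → F),
      3 ≤ k ∧ 2 ≤ t ∧ n = k ^ t ∧ ¬ (q = 2 ∧ k = 3) ∧ IsUnitaryFormPow q f₁ ∧
      IsTensorPowerFormStructure (fun x : F => x ^ q) (hermForm n F q) f₁ e P ∧
      H ≤ tensorWreathSubgroup k t e P ∧ (t = 2 → H = tensorWreathSubgroup k t e P ⊓ SUg n F q)) ∨
  InUnitaryResidualClass H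

end Cfsg.Agent.Lib.Helper5.SUAsch
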